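import Mathlib
import Cfsg.Agent.Lib.Helper56.TC
import Cfsg.Agent.Lib.Helper28.Sp6Mult.L0.D
set_option autoImplicit false
set_option maxRecDepth 1000000

namespace Cfsg.Agent.Lib.Helper28.Sp6Mult.L0

open Cfsg.Agent.Lib.Helper56.TC Cfsg.Agent.Lib.Helper56.TC.Tabs
open Cfsg.Agent.Lib.Helper28.CovL

theorem cN_0 : allRange (fun x => forceN T.chkName x) 0 1143 = true := by decide +kernel
theorem cN_1143 : allRange (fun x => forceN T.chkName x) 1143 1158 = true := by decide +kernel
theorem cN_2301 : allRange (fun x => forceN T.chkName x) 2301 1153 = true := by decide +kernel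
theorem cN_3454 : allRange (fun x => forceN T.chkName x) 3454 1200 = true := by decide +kernel
theorem cN_4654 : allRange (fun x => forceN T.chkName x) 4654 1194 = true := by decide +kernel
theorem cN_5848 : allRange (fun x => forceN T.chkName x) 5848 1149 = true := by decide +kernel
theorem cN_6997 : allRange (fun x => forceN T.chkName x) 6997 1220 = true := by decide +kernel
theorem cN_8217 : allRange (fun x => forceN T.chkName x) 8217 1178 = true := by decide +kernel
theorem cN_9395 : allRange (fun x => forceN T.chkName x) 9395 1193 = true := by decide +kernel
theorem cN_10588 : allRange (fun x => forceN T.chkName x) 10588 1141 = true := by decide +kernel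
theorem cN_11729 : allRange (fun x => forceN T.chkName x) 11729 1091 = true := by decide +kernel
theorem cN_12820 : allRange (fun x => forceN T.chkName x) 12820 1113 = true := by decide +kernel

end Cfsg.Agent.Lib.Helper28.Sp6Mult.L0
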