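import Mathlib
import Cfsg.Agent.Lib.Helper56.TC
import Cfsg.Agent.Lib.Helper28.Sp6Mult.L0.D
set_option autoImplicit false
set_option maxRecDepth 1000000

namespace Cfsg.Agent.Lib.Helper28.Sp6Mult.L0

open Cfsg.Agent.Lib.Helper56.TC Cfsg.Agent.Lib.Helper56.TC.Tabs
open Cfsg.Agent.Lib.Helper28.CovL

theorem cN_13933 : allRange (fun x => forceN T.chkName x) 13933 1067 = true := by decide +kernel
theorem cN_15000 : allRange (fun x => forceN T.chkName x) 15000 1084 = true := by decide +kernel
theorem cN_16084 : allRange (fun x => forceN T.chkName x) 16084 1106 = true := by decide +kernel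
theorem cN_17190 : allRange (fun x => forceN T.chkName x) 17190 1060 = true := by decide +kernel
theorem cN_18250 : allRange (fun x => forceN T.chkName x) 18250 943 = true := by decide +kernel
theorem cN_19193 : allRange (fun x => forceN T.chkName x) 19193 1042 = true := by decide +kernel
theorem cN_20235 : allRange (fun x => forceN T.chkName x) 20235 979 = true := by decide +kernel
theorem cN_21214 : allRange (fun x => forceN T.chkName x) 21214 949 = true := by decide +kernel
theorem cN_22163 : allRange (fun x => forceN T.chkName x) 22163 959 = true := by decide +kernel
theorem cN_23122 : allRange (fun x => forceN T.chkName x) 23122 922 = true := by decide +kernel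
theorem cN_24044 : allRange (fun x => forceN T.chkName x) 24044 205 = true := by decide +kernel
theorem cF_0 : allRange (fun x => forceN T.chkFinName x) 0 480 = true := by decide +kernel

end Cfsg.Agent.Lib.Helper28.Sp6Mult.L0
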