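import Mathlib
import Cfsg.Agent.Lib.Helper56.TC
import Cfsg.Agent.Lib.Helper28.Sp6Mult.L0.C0
import Cfsg.Agent.Lib.Helper28.Sp6Mult.L0.C1
set_option autoImplicit false
set_option maxRecDepth 1000000

namespace Cfsg.Agent.Lib.Helper28.Sp6Mult.L0

open Cfsg.Agent.Lib.Helper56.TC Cfsg.Agent.Lib.Helper56.TC.Tabs
open Cfsg.Agent.Lib.Helper28.CovL

theorem uN_1143 : Upto T.chkName 1143 := upto_add (upto_zero T.chkName) rfl cN_0
theorem uN_2301 : Upto T.chkName 2301 := upto_add uN_1143 rfl cN_1143
theorem uN_3454 : Upto T.chkName 3454 := upto_add uN_2301 rfl cN_2301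
theorem uN_4654 : Upto T.chkName 4654 := upto_add uN_3454 rfl cN_3454
theorem uN_5848 : Upto T.chkName 5848 := upto_add uN_4654 rfl cN_4654
theorem uN_6997 : Upto T.chkName 6997 := upto_add uN_5848 rfl cN_5848
theorem uN_8217 : Upto T.chkName 8217 := upto_add uN_6997 rfl cN_6997
theorem uN_9395 : Upto T.chkName 9395 := upto_add uN_8217 rfl cN_8217
theorem uN_10588 : Upto T.chkName 10588 := upto_add uN_9395 rfl cN_9395
theorem uN_11729 : Upto T.chkName 11729 := upto_add uN_10588 rfl cN_10588
theorem uN_12820 : Upto T.chkName 12820 := upto_add uN_11729 rfl cN_11729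
theorem uN_13933 : Upto T.chkName 13933 := upto_add uN_12820 rfl cN_12820
theorem uN_15000 : Upto T.chkName 15000 := upto_add uN_13933 rfl cN_13933
theorem uN_16084 : Upto T.chkName 16084 := upto_add uN_15000 rfl cN_15000
theorem uN_17190 : Upto T.chkName 17190 := upto_add uN_16084 rfl cN_16084
theorem uN_18250 : Upto T.chkName 18250 := upto_add uN_17190 rfl cN_17190
theorem uN_19193 : Upto T.chkName 19193 := upto_add uN_18250 rfl cN_18250
theorem uN_20235 : Upto T.chkName 20235 := upto_add uN_19193 rfl cN_19193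
theorem uN_21214 : Upto T.chkName 21214 := upto_add uN_20235 rfl cN_20235
theorem uN_22163 : Upto T.chkName 22163 := upto_add uN_21214 rfl cN_21214
theorem uN_23122 : Upto T.chkName 23122 := upto_add uN_22163 rfl cN_22163
theorem uN_24044 : Upto T.chkName 24044 := upto_add uN_23122 rfl cN_23122
theorem uN_24249 : Upto T.chkName 24249 := upto_add uN_24044 rfl cN_24044
theorem uF_480 : Upto T.chkFinName 480 := upto_add (upto_zero T.chkFinName) rfl cF_0

/-- The certificate is valid. -/
theorem certC : CertC T where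
  hNN := by decide +kernel
  hN := by decide +kernel
  hinvK := by decide +kernel
  hinvli := by decide +kernel
  hsubK := by decide +kernel
  hrelK := by decide +kernel
  hrx := by decide +kernel
  hchk := uN_24249
  hfin := uF_480

end Cfsg.Agent.Lib.Helper28.Sp6Mult.L0
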